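import Cfsg.Agent.Lib.Golay.Stab

/-!
The affine group `23:11` and the projective group of order 6072 on the 24 points, as explicit sets
of permutations, and the constraints on elements of `M24` normalising them.
-/

set_option autoImplicit false

namespace CfsgLib.GolayProjective

open Cfsg CfsgLib.Golay
open scoped Pointwise

instance fact23 : Fact (Nat.Prime 23) := ⟨by norm_num⟩

/-- Translation. -/
def tA (c : ZMod 23) : Equiv.Perm GolayPt := Equiv.optionCongr (Equiv.addRight c)

/-- Multiplication. -/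
def hA (u : (ZMod 23)ˣ) : Equiv.Perm GolayPt := Equiv.optionCongr (Units.mulLeft u)

theorem tA_none (c : ZMod 23) : tA c none = none := rfl
theorem tA_some (c x : ZMod 23) : tA c (some x) = some (x + c) := rfl
theorem hA_none (u : (ZMod 23)ˣ) : hA u none = none := rfl
theorem hA_some (u : (ZMod 23)ˣ) (x : ZMod 23) : hA u (some x) = some (u * x) := rfl

theorem projInv_apply (p : GolayPt) : projInv p = projInvFun p := rfl

theorem tA_mul (c d : ZMod 23) : tA c * tA d = tA (d + c) := by
  ext1 p; cases p with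
  | none => rfl
  | some x => simp only [Equiv.Perm.mul_apply, tA_some, add_assoc]

theorem tA_zero : tA 0 = 1 := by
  ext1 p; cases p with
  | none => rfl
  | some x => simp only [tA_some, add_zero, Equiv.Perm.one_apply]

theorem hA_mul (u v : (ZMod 23)ˣ) : hA u * hA v = hA (u * v) := by
  ext1 p; cases p with
  | none => rfl
  | some x => simp only [Equiv.Perm.mul_apply, hA_some, Units.val_mul, mul_assoc]

theorem hA_one : hA 1 = 1 := by
  ext1 p; cases p with
  | none => rfl
  | some x => simp only [hA_some, Units.val_one, one_mul, Equiv.Perm.one_apply]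

theorem tA_mul_hA (u : (ZMod 23)ˣ) (c : ZMod 23) :
    tA c * hA u = hA u * tA ((↑u⁻¹ : ZMod 23) * c) := by
  ext1 p; cases p with
  | none => rfl
  | some x =>
      simp only [Equiv.Perm.mul_apply, hA_some, tA_some, mul_add, ← mul_assoc, Units.mul_inv,
        one_mul]

theorem projInv_checks : (∀ p : GolayPt, projInvFun (projInvFun p) = p) ∧
    (∀ c : ZMod 23, c ≠ 0 → ∀ p : GolayPt, projInvFun (Option.map (· + c) (projInvFun p)) =
      Option.map (· + -c ^ 21) (Option.map (c ^ 20 * ·)
        (projInvFun (Option.map (· + -c ^ 21) p)))) ∧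
    ∀ u : ZMod 23, u ≠ 0 → ∀ p : GolayPt,
      projInvFun (Option.map (u * ·) p) = Option.map (u ^ 21 * ·) (projInvFun p) := by
  decide +kernel

theorem inv_eq_pow {u : (ZMod 23)ˣ} : (↑u⁻¹ : ZMod 23) = (u : ZMod 23) ^ 21 := by
  have h : u ^ 22 = 1 := ZMod.units_pow_card_sub_one_eq_one 23 u
  rw [← Units.val_pow_eq_pow_val]
  congr 1
  rw [inv_eq_iff_mul_eq_one, ← pow_succ', h]

theorem projInv_mul_self : projInv * projInv = 1 :=
  Equiv.ext fun p => projInv_checks.1 p

theorem projInv_mul_hA (u : (ZMod 23)ˣ) : projInv * hA u = hA u⁻¹ * projInv := by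
  ext1 p
  have h := projInv_checks.2.2 (u : ZMod 23) u.ne_zero p
  rw [← inv_eq_pow] at h
  exact h

theorem projInv_tA_projInv (c : ZMod 23) (hc : c ≠ 0) :
    projInv * tA c * projInv =
      tA (-c ^ 21) * hA (Units.mk0 c hc ^ 20) * projInv * tA (-c ^ 21) := by
  ext1 p
  have h := projInv_checks.2.1 c hc p
  exact h

/-- The elements of `23:11`. -/
def affSet : Set (Equiv.Perm GolayPt) := {g | ∃ u, IsSquare u ∧ ∃ c, g = hA u * tA c}

/-- The subgroup `23:11`. -/
def aff : Subgroup (Equiv.Perm GolayPt) :=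
  Subgroup.closure ({tA 1} ∪ {g | ∃ u : (ZMod 23)ˣ, IsSquare u ∧ g = hA u})

/-- The subgroup of order 6072. -/
def proj : Subgroup (Equiv.Perm GolayPt) :=
  Subgroup.closure ({tA 1, projInv} ∪ {g | ∃ u : (ZMod 23)ˣ, IsSquare u ∧ g = hA u})

theorem tA_pow (n : ℕ) : tA 1 ^ n = tA n := by
  induction n with
  | zero => rw [pow_zero, Nat.cast_zero, tA_zero]
  | succ n ih => rw [pow_succ', ih, tA_mul, Nat.cast_succ]

theorem tA_mem {H : Subgroup (Equiv.Perm GolayPt)} (h : tA 1 ∈ H) (c : ZMod 23) : tA c ∈ H := by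
  rw [← ZMod.natCast_zmod_val c, ← tA_pow]
  exact pow_mem h _

theorem closure_subset {S gens : Set (Equiv.Perm GolayPt)} (h1 : 1 ∈ S)
    (hmul : ∀ g ∈ S, ∀ y ∈ gens, g * y ∈ S) :
    (Subgroup.closure gens : Set (Equiv.Perm GolayPt)) ⊆ S := by
  intro g hg
  have hinv : ∀ y ∈ gens, ∀ x ∈ S, x * y⁻¹ ∈ S := by
    intro y hy x hx
    have himg : (· * y) '' S = S := Set.eq_of_subset_of_ncard_le
      (Set.image_subset_iff.2 fun z hz => hmul z hz y hy)
      (Set.ncard_image_of_injective _ (mul_left_injective y)).ge (Set.toFinite _)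
    obtain ⟨z, hz, rfl⟩ := himg.symm ▸ hx
    simpa using hz
  induction hg using Subgroup.closure_induction_right with
  | one => exact h1
  | mul_right x _ y hy hx => exact hmul x hx y hy
  | mul_inv_cancel x _ y hy hx => exact hinv y hy x hx

theorem mem_aff_iff {g : Equiv.Perm GolayPt} : g ∈ aff ↔ g ∈ affSet := by
  constructor
  · refine fun hg => closure_subset (S := affSet) ?_ ?_ hg
    · exact ⟨1, IsSquare.one, 0, by rw [hA_one, tA_zero, mul_one]⟩
    · rintro _ ⟨u, hu, c, rfl⟩ y (rfl | ⟨v, hv, rfl⟩)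
      · exact ⟨u, hu, 1 + c, by rw [mul_assoc, tA_mul]⟩
      · exact ⟨u * v, hu.mul hv, (↑v⁻¹ : ZMod 23) * c, by
          rw [mul_assoc, tA_mul_hA, ← mul_assoc, hA_mul]⟩
  · rintro ⟨u, hu, c, rfl⟩
    exact mul_mem (Subgroup.subset_closure (Or.inr ⟨u, hu, rfl⟩))
      (tA_mem (Subgroup.subset_closure (Or.inl rfl)) c)

/-- The elements of the group of order 6072. -/
def projSet : Set (Equiv.Perm GolayPt) :=
  affSet ∪ {g | ∃ f ∈ affSet, ∃ c, g = f * projInv * tA c}

theorem isSquare_pow_twenty (u : (ZMod 23)ˣ) : IsSquare (u ^ 20) := ⟨u ^ 10, by rw [← pow_add]⟩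

theorem mem_proj_iff {g : Equiv.Perm GolayPt} : g ∈ proj ↔ g ∈ projSet := by
  have haff : ∀ f, f ∈ affSet → f ∈ proj := by
    intro f hf
    refine Subgroup.closure_mono ?_ (mem_aff_iff.2 hf)
    rintro y (rfl | hy)
    exacts [Or.inl (Or.inl rfl), Or.inr hy]
  constructor
  · refine fun hg => closure_subset (S := projSet) ?_ ?_ hg
    · exact Or.inl (mem_aff_iff.1 (one_mem _))
    · rintro g (hg | ⟨f, hf, c, rfl⟩) y ((rfl | rfl) | ⟨v, hv, rfl⟩)
      · exact Or.inl (mem_aff_iff.1 (mul_mem (mem_aff_iff.2 hg)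
          (Subgroup.subset_closure (Or.inl rfl))))
      · exact Or.inr ⟨g, hg, 0, by rw [tA_zero, mul_one]⟩
      · exact Or.inl (mem_aff_iff.1 (mul_mem (mem_aff_iff.2 hg)
          (Subgroup.subset_closure (Or.inr ⟨v, hv, rfl⟩))))
      · exact Or.inr ⟨f, hf, 1 + c, by rw [mul_assoc, tA_mul]⟩
      · by_cases hc : c = 0
        · refine Or.inl ?_
          rwa [hc, tA_zero, mul_one, mul_assoc, projInv_mul_self, mul_one]
        · refine Or.inr ⟨f * (tA (-c ^ 21) * hA (Units.mk0 c hc ^ 20)), ?_, -c ^ 21, ?_⟩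
          · exact mem_aff_iff.1 (mul_mem (mem_aff_iff.2 hf) (mul_mem
              (tA_mem (Subgroup.subset_closure (Or.inl rfl)) _)
              (Subgroup.subset_closure (Or.inr ⟨_, isSquare_pow_twenty _, rfl⟩))))
          · simp only [mul_assoc]
            have := projInv_tA_projInv c hc
            simp only [mul_assoc] at this
            rw [this]
      · refine Or.inr ⟨f * hA v⁻¹, ?_, (↑v⁻¹ : ZMod 23) * c, ?_⟩
        · exact mem_aff_iff.1 (mul_mem (mem_aff_iff.2 hf)
            (Subgroup.subset_closure (Or.inr ⟨v⁻¹, hv.inv, rfl⟩)))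
        · rw [mul_assoc (f * projInv), tA_mul_hA, mul_assoc f (hA v⁻¹), ← projInv_mul_hA]
          simp only [mul_assoc]
  · rintro (hg | ⟨f, hf, c, rfl⟩)
    · exact haff _ hg
    · exact mul_mem (mul_mem (haff _ hf) (Subgroup.subset_closure (Or.inl (Or.inr rfl))))
        (tA_mem (Subgroup.subset_closure (Or.inl (Or.inl rfl))) c)

theorem card_squares : Nat.card {u : (ZMod 23)ˣ // IsSquare u} = 11 := by
  rw [Nat.card_eq_fintype_card]
  decide +kernel

theorem card_aff : Nat.card aff = 253 := by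
  let f : {u : (ZMod 23)ˣ // IsSquare u} × ZMod 23 → aff := fun p =>
    ⟨hA p.1 * tA p.2, mem_aff_iff.2 ⟨p.1, p.1.2, p.2, rfl⟩⟩
  have hf : Function.Bijective f := by
    constructor
    · rintro ⟨u, c⟩ ⟨v, d⟩ h
      have h0 := DFunLike.congr_fun (congrArg Subtype.val h) (some (-c))
      have h1 := DFunLike.congr_fun (congrArg Subtype.val h) (some (1 - c))
      simp only [f, Equiv.Perm.mul_apply, tA_some, hA_some, neg_add_cancel, mul_zero,
        sub_add_cancel, mul_one, Option.some.injEq] at h0 h1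
      have hd : -c + d = 0 := by
        rcases mul_eq_zero.1 h0.symm with h' | h'
        · exact absurd h' (Units.ne_zero _)
        · exact h'
      have hcd : c = d := neg_add_eq_zero.1 hd
      subst hcd
      rw [sub_add_cancel, mul_one] at h1
      rw [Prod.mk.injEq]
      exact ⟨Subtype.ext (Units.ext h1), rfl⟩
    · rintro ⟨g, hg⟩
      obtain ⟨u, hu, c, rfl⟩ := mem_aff_iff.1 hg
      exact ⟨(⟨u, hu⟩, c), rfl⟩
  rw [← Nat.card_congr (Equiv.ofBijective f hf), Nat.card_prod, card_squares, Nat.card_zmod]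

theorem aff_fix {g : Equiv.Perm GolayPt} (hg : g ∈ aff) : g none = none := by
  obtain ⟨u, -, c, rfl⟩ := mem_aff_iff.1 hg
  rfl

theorem card_proj : Nat.card proj = 6072 := by
  let f : aff ⊕ (aff × ZMod 23) → proj := Sum.elim
    (fun g => ⟨g, mem_proj_iff.2 (Or.inl (mem_aff_iff.1 g.2))⟩)
    (fun p => ⟨p.1 * projInv * tA p.2,
      mem_proj_iff.2 (Or.inr ⟨p.1, mem_aff_iff.1 p.1.2, p.2, rfl⟩)⟩)
  have key : ∀ (g : aff) (c : ZMod 23), ((g : Equiv.Perm GolayPt) * projInv * tA c) (some (-c)) =
      none := by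
    intro g c
    rw [Equiv.Perm.mul_apply, Equiv.Perm.mul_apply, tA_some, neg_add_cancel]
    exact aff_fix g.2
  have hne : ∀ (g : aff) (c : ZMod 23),
      ((g : Equiv.Perm GolayPt) * projInv * tA c) none ≠ none := by
    intro g c h
    rw [Equiv.Perm.mul_apply, Equiv.Perm.mul_apply, tA_none] at h
    have : projInv none = none := (g : Equiv.Perm GolayPt).injective (h.trans (aff_fix g.2).symm)
    exact Option.some_ne_none _ this
  have hf : Function.Bijective f := by
    constructor
    · rintro (g | ⟨g, c⟩) (g' | ⟨g', c'⟩) h <;> have h' := congrArg Subtype.val h <;>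
        simp only [f, Sum.elim_inl, Sum.elim_inr] at h'
      · exact congrArg Sum.inl (Subtype.ext h')
      · exact absurd (by rw [← h']; exact aff_fix g.2) (hne g' c')
      · exact absurd (by rw [h']; exact aff_fix g'.2) (hne g c)
      · have hcc : c = c' := by
          have := key g' c'
          rw [← h', ← key g c] at this
          exact (neg_injective (Option.some.inj (((g : Equiv.Perm GolayPt) * projInv *
            tA c).injective this))).symm
        subst hcc
        exact congrArg Sum.inr (Prod.ext (Subtype.ext (mul_right_cancel (mul_right_cancel h'))) rfl)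
    · rintro ⟨g, hg⟩
      rcases mem_proj_iff.1 hg with hg | ⟨f', hf', c, rfl⟩
      · exact ⟨Sum.inl ⟨g, mem_aff_iff.2 hg⟩, rfl⟩
      · exact ⟨Sum.inr (⟨f', mem_aff_iff.2 hf'⟩, c), rfl⟩
  rw [← Nat.card_congr (Equiv.ofBijective f hf), Nat.card_sum, Nat.card_prod, card_aff,
    Nat.card_zmod]

theorem aff_le_M24 : aff ≤ M24 := by
  rw [aff, Subgroup.closure_le]
  rintro g (rfl | ⟨u, hu, rfl⟩)
  exacts [addOne_mem_M24, mulSquare_mem_M24 u hu]

theorem proj_le_M24 : proj ≤ M24 := by
  rw [proj, Subgroup.closure_le]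
  rintro g ((rfl | rfl) | ⟨u, hu, rfl⟩)
  exacts [addOne_mem_M24, projInv_mem_M24, mulSquare_mem_M24 u hu]

/-! ### Necessary conditions for membership in `M24` -/

/-- The images of the basis words lie in the code. -/
def keeps (t : ℕ) : Bool := basisMasks.all fun b => inCode (imgMask t b)

theorem imgMask_lt {t n : ℕ} (h : ∀ i, i < 24 → tblAt t i < 24) : imgMask t n < 2 ^ 24 := by
  refine Nat.lt_pow_two_of_testBit _ fun j hj => ?_
  by_contra hc
  rw [Bool.not_eq_false, testBit_imgMask] at hc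
  obtain ⟨i, hi, -, rfl⟩ := hc
  exact absurd (h i hi) (by omega)

theorem keeps_of_mem {g : Equiv.Perm GolayPt} {t : ℕ} (h : IsTbl g t) (hg : g ∈ M24) :
    keeps t = true := by
  simp only [keeps, List.all_eq_true]
  intro b hb
  have hmem : unmask b ∈ supports (golayCode : Set (GolayPt → ZMod 2)) :=
    mem_supports_iff.2 ⟨b, mem_spanMasks_self hb, rfl⟩
  have h' := smul_mem_supports hg hmem
  rw [smul_unmask h] at h'
  obtain ⟨n, hn, he⟩ := mem_supports_iff.1 h'
  have hlt : imgMask t b < 2 ^ 24 := imgMask_lt fun i hi => by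
    have := h (pt i)
    rw [idx_pt hi] at this
    exact this ▸ idx_lt _
  have : n = imgMask t b := by
    refine Nat.eq_of_testBit_eq fun j => ?_
    rcases Nat.lt_or_ge j 24 with hj | hj
    · have := Finset.ext_iff.1 he (pt j)
      simp only [pt_mem_unmask hj] at this
      exact Bool.eq_iff_iff.2 this
    · rw [Nat.testBit_lt_two_pow ((lt_of_mem_codeMasks hn).trans_le
        (Nat.pow_le_pow_right (by norm_num) hj)),
        Nat.testBit_lt_two_pow (hlt.trans_le (Nat.pow_le_pow_right (by norm_num) hj))]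
  exact inCode_iff.2 (this ▸ hn)

end CfsgLib.GolayProjective
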