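import Cfsg.Agent.Lib.GolayProjective.Elements

/-!
`23:11` is maximal in the stabiliser of a point of `M24`, and the group of order 6072 is maximal
in `M24`: a Sylow count for 23, refuted by the normaliser of an element of order 11.
-/

set_option autoImplicit false

namespace CfsgLib.GolayProjective

open Cfsg CfsgLib.Golay
open scoped Pointwise

/-- `x ↦ 2x`, of order 11. -/
def hh : Equiv.Perm GolayPt := hA ⟨2, 12, by decide, by decide⟩

/-- The table of the map with `2^i ↦ a·2^(ji)`, `-2^i ↦ b·2^(ji)`, fixing `0` and the extra point. -/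
def candTbl (j a b : ℕ) : ℕ :=
  (List.range 11).foldr (fun i acc => acc + a * (2 ^ (j * i) % 23) % 23 * 32 ^ (2 ^ i % 23) +
    b * (2 ^ (j * i) % 23) % 23 * 32 ^ (22 * 2 ^ i % 23)) (23 * 32 ^ 23)

/-- The table commutes as required with doubling. -/
def candOk (j a b : ℕ) : Bool :=
  let t := candTbl j a b
  tblAt t 0 == 0 && tblAt t 23 == 23 && tblAt t 1 == a && tblAt t 22 == b &&
    (List.range 22).all fun n => tblAt t (2 * (n + 1) % 23) == 2 ^ j * tblAt t (n + 1) % 23

theorem candTbl_ok : ((List.range 10).all fun j => (List.range 22).all fun a =>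
    (List.range 22).all fun b => candOk (j + 1) (a + 1) (b + 1)) = true := by
  decide +kernel

/-- The image of `-1` determined by the exponent and the image of `1`. -/
def secondVal (j a : ℕ) : ℕ := a * [0, 22, 0, 11, 7, 17, 0, 0, 0, 10, 0].getD j 0 % 23

/-- The triples allowed in `M24`. -/
def candGood (j a b : ℕ) : Bool :=
  (j ^ 5 % 11 == 1) && b == secondVal j a && (j != 1 || [1, 2, 3, 4, 6, 8, 9, 12, 13, 16, 18].contains a)

theorem candTbl_good : ((List.range 10).all fun j => (List.range 22).all fun a =>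
    (List.range 22).all fun b => candGood (j + 1) (a + 1) (b + 1) ||
      !keeps (candTbl (j + 1) (a + 1) (b + 1)) ||
      !(((List.range 24).map (tblAt (candTbl (j + 1) (a + 1) (b + 1)))).Nodup : Bool)) = true := by
  decide +kernel

theorem powers_two : (∀ x : ZMod 23, x ≠ 0 → ∃ i : Fin 11, x = 2 ^ i.1 ∨ x = -(2 ^ i.1)) := by
  decide +kernel

theorem hh_none : hh none = none := rfl

theorem hh_some (x : ZMod 23) : hh (some x) = some (2 * x) := rfl

theorem hh_pow (n : ℕ) (x : ZMod 23) : (hh ^ n) (some x) = some (2 ^ n * x) := by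
  induction n with
  | zero => simp
  | succ n ih => rw [pow_succ', Equiv.Perm.mul_apply, ih, hh_some, pow_succ', mul_assoc]

theorem hh_order : orderOf hh = 11 := by
  have : Fact (Nat.Prime 11) := ⟨by norm_num⟩
  refine orderOf_eq_prime (Equiv.ext fun p => ?_) fun h => ?_
  · cases p with
    | none => exact Equiv.Perm.pow_apply_eq_self_of_apply_eq_self hh_none 11
    | some x => rw [hh_pow, show (2 : ZMod 23) ^ 11 = 1 by decide, one_mul]; rfl
  · have := DFunLike.congr_fun h (some (1 : ZMod 23))
    revert this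
    decide +kernel

theorem idx_some (x : ZMod 23) : idx (some x) = x.val := rfl

theorem val_two_mul (x : ZMod 23) : (2 * x).val = 2 * x.val % 23 := by
  rw [ZMod.val_mul]
  rfl

/-- Elements normalising `⟨x ↦ 2x⟩` and fixing two points. -/
structure Norm11 (g : Equiv.Perm GolayPt) : Prop where
  mem : g ∈ M24
  fix_none : g none = none
  fix_zero : g (some 0) = some 0
  conj : g * hh * g⁻¹ ∈ Subgroup.zpowers hh

theorem exists_exponent {g : Equiv.Perm GolayPt} (h : g * hh * g⁻¹ ∈ Subgroup.zpowers hh) :
    ∃ j, 1 ≤ j ∧ j ≤ 10 ∧ g * hh = hh ^ j * g := by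
  rw [mem_zpowers_iff_mem_range_orderOf, Finset.mem_image] at h
  obtain ⟨j, hj, he⟩ := h
  rw [Finset.mem_range, hh_order] at hj
  have he' : g * hh = hh ^ j * g := by rw [he, inv_mul_cancel_right]
  refine ⟨j, ?_, by omega, he'⟩
  by_contra h0
  have hj0 : j = 0 := by omega
  subst hj0
  rw [pow_zero, one_mul, mul_eq_left] at he'
  simpa [he'] using hh_order

theorem apply_double {g : Equiv.Perm GolayPt} {j : ℕ} (he : g * hh = hh ^ j * g) (x : ZMod 23)
    {y : ZMod 23} (hy : g (some x) = some y) : g (some (2 * x)) = some (2 ^ j * y) := by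
  have := DFunLike.congr_fun he (some x)
  rwa [Equiv.Perm.mul_apply, Equiv.Perm.mul_apply, hh_some, hy, hh_pow] at this

theorem exists_value {g : Equiv.Perm GolayPt} (h0 : g none = none) (h00 : g (some 0) = some 0)
    {x : ZMod 23} (hx : x ≠ 0) : ∃ y : ZMod 23, y ≠ 0 ∧ g (some x) = some y := by
  cases hy : g (some x) with
  | none => exact absurd (g.injective (hy.trans h0.symm)) (Option.some_ne_none _)
  | some y =>
      refine ⟨y, fun h => hx ?_, rfl⟩
      exact Option.some.inj (g.injective (hy.trans (h ▸ h00.symm)))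

theorem norm11_cases {g : Equiv.Perm GolayPt} (hg : Norm11 g) :
    ∃ j a : ℕ, 1 ≤ j ∧ j ≤ 10 ∧ j ^ 5 % 11 = 1 ∧ g * hh = hh ^ j * g ∧
      IsTbl g (candTbl j a (secondVal j a)) ∧ a < 23 ∧
      (j = 1 → a ∈ [1, 2, 3, 4, 6, 8, 9, 12, 13, 16, 18]) := by
  obtain ⟨j, hj1, hj2, he⟩ := exists_exponent hg.conj
  obtain ⟨a, ha0, ha⟩ := exists_value hg.fix_none hg.fix_zero (one_ne_zero (α := ZMod 23))
  obtain ⟨b, hb0, hb⟩ := exists_value hg.fix_none hg.fix_zero
    (neg_ne_zero.2 (one_ne_zero (α := ZMod 23)))
  have ha1 : a.val ≠ 0 := fun h => ha0 ((ZMod.val_eq_zero a).1 h)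
  have hb1 : b.val ≠ 0 := fun h => hb0 ((ZMod.val_eq_zero b).1 h)
  have hal := a.val_lt
  have hbl := b.val_lt
  have hok : candOk j a.val b.val = true := by
    have := candTbl_ok
    simp only [List.all_eq_true, List.mem_range] at this
    have := this (j - 1) (by omega) (a.val - 1) (by omega) (b.val - 1) (by omega)
    rwa [show j - 1 + 1 = j by omega, show a.val - 1 + 1 = a.val by omega,
      show b.val - 1 + 1 = b.val by omega] at this
  simp only [candOk, Bool.and_eq_true, beq_iff_eq, List.all_eq_true, List.mem_range] at hok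
  obtain ⟨⟨⟨⟨t0, t23⟩, t1⟩, t22⟩, tdbl⟩ := hok
  set t := candTbl j a.val b.val with ht
  have step : ∀ (s : ZMod 23), s ≠ 0 → ∀ y, g (some s) = some y → y.val = tblAt t s.val →
      ∀ i : ℕ, ∃ z, g (some (2 ^ i * s)) = some z ∧ z.val = tblAt t (2 ^ i * s).val := by
    intro s hs y hy hyv i
    induction i with
    | zero => exact ⟨y, by rwa [pow_zero, one_mul], by rwa [pow_zero, one_mul]⟩
    | succ i ih =>
        obtain ⟨z, hz, hzv⟩ := ih
        refine ⟨2 ^ j * z, by rw [pow_succ', mul_assoc]; exact apply_double he _ hz, ?_⟩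
        have hne : (2 ^ i * s : ZMod 23) ≠ 0 := mul_ne_zero (pow_ne_zero _ (by decide)) hs
        have hv : (2 ^ i * s : ZMod 23).val ≠ 0 := fun h => hne ((ZMod.val_eq_zero _).1 h)
        have hvl := (2 ^ i * s : ZMod 23).val_lt
        have := tdbl ((2 ^ i * s : ZMod 23).val - 1) (by omega)
        rw [show (2 ^ i * s : ZMod 23).val - 1 + 1 = (2 ^ i * s : ZMod 23).val by omega] at this
        rw [pow_succ', mul_assoc, val_two_mul (2 ^ i * s), this, ← hzv, ZMod.val_mul]
        conv_rhs => rw [Nat.mul_mod]
        conv_lhs => rw [Nat.mul_mod]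
        have hp : ((2 : ZMod 23) ^ j).val % 23 = 2 ^ j % 23 := by
          rw [show (2 : ZMod 23) = ((2 : ℕ) : ZMod 23) from rfl, ← Nat.cast_pow,
            ZMod.val_natCast, Nat.mod_mod]
        rw [hp]
  have hT : IsTbl g t := by
    intro p
    cases p with
    | none => rw [hg.fix_none]; exact t23.symm
    | some x =>
        rcases eq_or_ne x 0 with rfl | hx
        · rw [hg.fix_zero]; exact t0.symm
        · obtain ⟨i, hi | hi⟩ := powers_two x hx
          · obtain ⟨z, hz, hzv⟩ := step 1 one_ne_zero a ha t1.symm i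
            rw [mul_one, ← hi] at hz hzv
            rw [hz]; exact hzv
          · obtain ⟨z, hz, hzv⟩ := step (-1) (neg_ne_zero.2 one_ne_zero) b hb t22.symm i
            rw [mul_neg, mul_one, ← hi] at hz hzv
            rw [hz]; exact hzv
  have hkeep := keeps_of_mem hT hg.mem
  have hnd : ((List.range 24).map (tblAt t)).Nodup := by
    refine List.Nodup.map_on ?_ List.nodup_range
    intro i hi i' hi' h
    rw [List.mem_range] at hi hi'
    have h1 := hT (pt i)
    have h2 := hT (pt i')
    rw [idx_pt hi] at h1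
    rw [idx_pt hi'] at h2
    have := g.injective (idx_injective (h1.trans (h.trans h2.symm)))
    have h3 := congrArg idx this
    rwa [idx_pt hi, idx_pt hi'] at h3
  have hgood : candGood j a.val b.val = true := by
    have := candTbl_good
    simp only [List.all_eq_true, List.mem_range] at this
    have := this (j - 1) (by omega) (a.val - 1) (by omega) (b.val - 1) (by omega)
    rw [show j - 1 + 1 = j by omega, show a.val - 1 + 1 = a.val by omega,
      show b.val - 1 + 1 = b.val by omega, ← ht, hkeep] at this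
    simpa [hnd] using this
  simp only [candGood, Bool.and_eq_true, beq_iff_eq, Bool.or_eq_true, bne_iff_ne,
    List.contains_iff_mem] at hgood
  refine ⟨j, a.val, hj1, hj2, hgood.1.1, he, ?_, hal, fun h => hgood.2.resolve_left fun h' => h' h⟩
  rw [← hgood.1.2]
  exact hT

theorem candTbl_pow : ∀ a ∈ [1, 2, 3, 4, 6, 8, 9, 12, 13, 16, 18], ∃ i : Fin 11,
    ∀ p : GolayPt, tblAt (candTbl 1 a (secondVal 1 a)) (idx p) =
      idx (Option.map (fun x : ZMod 23 => 2 ^ i.1 * x) p) := by
  decide +kernel

theorem Norm11.pow {g : Equiv.Perm GolayPt} (hg : Norm11 g) (n : ℕ) : Norm11 (g ^ n) := by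
  refine ⟨pow_mem hg.mem n, Equiv.Perm.pow_apply_eq_self_of_apply_eq_self hg.fix_none n,
    Equiv.Perm.pow_apply_eq_self_of_apply_eq_self hg.fix_zero n, ?_⟩
  induction n with
  | zero => simp
  | succ n ih =>
      obtain ⟨k, hk⟩ := ih
      have hk' : g ^ n * hh * (g ^ n)⁻¹ = hh ^ k := hk.symm
      have : g ^ (n + 1) * hh * (g ^ (n + 1))⁻¹ = (g * hh * g⁻¹) ^ k := by
        rw [conj_zpow, ← hk', pow_succ']
        group
      rw [this]
      exact zpow_mem hg.conj k

theorem conj_pow {g : Equiv.Perm GolayPt} {j : ℕ} (he : g * hh = hh ^ j * g) :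
    ∀ n, g ^ n * hh = hh ^ (j ^ n) * g ^ n
  | 0 => by simp
  | n + 1 => by
      have h2 : ∀ m, g * hh ^ m = (hh ^ j) ^ m * g := by
        intro m
        induction m with
        | zero => simp
        | succ m ih =>
            rw [pow_succ, ← mul_assoc, ih, mul_assoc, he, ← mul_assoc, ← pow_succ]
      rw [pow_succ' g n, mul_assoc, conj_pow he n, ← mul_assoc, h2, mul_assoc, ← pow_mul,
        ← pow_succ' j n]

theorem norm11_pow {g : Equiv.Perm GolayPt} (hg : Norm11 g) : g ^ 55 = 1 := by
  obtain ⟨j, a, -, -, hj5, he, -, -, -⟩ := norm11_cases hg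
  obtain ⟨j', a', hj1', hj2', -, he', hT', -, hone⟩ := norm11_cases (hg.pow 5)
  have h5 := conj_pow he 5
  rw [← pow_mod_orderOf hh (j ^ 5), hh_order, hj5, pow_one, he', mul_left_inj] at h5
  have hj' : j' = 1 := by
    have := pow_inj_mod.1 (show hh ^ j' = hh ^ 1 by rw [pow_one, h5])
    rw [hh_order] at this
    omega
  obtain ⟨i, hi⟩ := candTbl_pow a' (hone hj')
  subst hj'
  have hgi : g ^ 5 = hh ^ i.1 := by
    refine Equiv.ext fun p => idx_injective ?_
    rw [hT' p, hi p]
    cases p with
    | none => rw [Equiv.Perm.pow_apply_eq_self_of_apply_eq_self hh_none]; rfl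
    | some x => rw [hh_pow]; rfl
  have h11 : hh ^ 11 = 1 := orderOf_dvd_iff_pow_eq_one.1 (dvd_of_eq hh_order)
  rw [show 55 = 5 * 11 from rfl, pow_mul, hgi, ← pow_mul, mul_comm, pow_mul, h11, one_pow]

theorem hh_mem_aff : hh ∈ aff :=
  Subgroup.subset_closure (Or.inr ⟨_, by decide +kernel, rfl⟩)

/-- A subgroup fixing two points and containing `hh` meets the normaliser in 11 or 55 elements. -/
theorem card_normalizer11 {K : Subgroup (Equiv.Perm GolayPt)} (hK : K ≤ M24)
    (h0 : ∀ g ∈ K, g none = none) (h00 : ∀ g ∈ K, g (some 0) = some 0) (hh' : hh ∈ K) :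
    Nat.card ↥(K ⊓ Subgroup.normalizer (Subgroup.zpowers hh : Set (Equiv.Perm GolayPt))) = 11 ∨
    Nat.card ↥(K ⊓ Subgroup.normalizer (Subgroup.zpowers hh : Set (Equiv.Perm GolayPt))) = 55 := by
  set N := K ⊓ Subgroup.normalizer (Subgroup.zpowers hh : Set (Equiv.Perm GolayPt)) with hN
  have hmem : ∀ g ∈ N, Norm11 g := fun g hg =>
    ⟨hK hg.1, h0 g hg.1, h00 g hg.1,
      (Subgroup.mem_normalizer_iff.1 hg.2 hh).1 (Subgroup.mem_zpowers hh)⟩
  have h11 : 11 ∣ Nat.card N := by
    have hle : Subgroup.zpowers hh ≤ N :=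
      le_inf (Subgroup.zpowers_le.2 hh') Subgroup.le_normalizer
    have := Subgroup.card_dvd_of_le hle
    rwa [Nat.card_zpowers, hh_order] at this
  have hprimes : ∀ p : ℕ, p.Prime → p ∣ Nat.card N → p = 5 ∨ p = 11 := by
    intro p hp hdvd
    have := Fact.mk hp
    obtain ⟨x, hx⟩ := exists_prime_orderOf_dvd_card' p hdvd
    have h55 : p ∣ 5 * 11 := by
      rw [← hx, ← Subgroup.orderOf_coe]
      exact orderOf_dvd_of_pow_eq_one (norm11_pow (hmem x x.2))
    rcases (Nat.Prime.dvd_mul hp).1 h55 with h | h
    · exact Or.inl ((Nat.prime_dvd_prime_iff_eq hp (by norm_num)).1 h)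
    · exact Or.inr ((Nat.prime_dvd_prime_iff_eq hp (by norm_num)).1 h)
  have hle : Nat.card N ≤ 5 * 22 := by
    have hc : ∀ x : N, ∃ j : {j : Fin 11 // j.1 ^ 5 % 11 = 1}, ∃ a : Fin 23,
        IsTbl (x : Equiv.Perm GolayPt) (candTbl j.1.1 a.1 (secondVal j.1.1 a.1)) ∧
        a.1 ≠ 0 := by
      intro x
      obtain ⟨j, a, hj1, hj2, hj5, -, hT, ha, -⟩ := norm11_cases (hmem x x.2)
      refine ⟨⟨⟨j, by omega⟩, hj5⟩, ⟨a, ha⟩, hT, fun h => ?_⟩
      simp only at h
      subst h
      have h1 := hT (some 1)
      have h2 := hT (some 0)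
      rw [h00 _ x.2.1] at h2
      have : ∀ j : Fin 11, tblAt (candTbl j.1 0 (secondVal j.1 0)) 1 = tblAt (candTbl j.1 0 (secondVal j.1 0)) 0 := by
        decide +kernel
      have h3 := (h2.trans ((this ⟨j, by omega⟩).symm.trans h1.symm))
      have h4 := idx_injective h3
      rw [← h00 _ x.2.1] at h4
      exact absurd (Option.some.inj ((x : Equiv.Perm GolayPt).injective h4)) (by decide)
    choose fj fa hfT hfa using hc
    let F : N → {j : Fin 11 // j.1 ^ 5 % 11 = 1} × {a : Fin 23 // a.1 ≠ 0} :=
      fun x => (fj x, ⟨fa x, hfa x⟩)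
    have hF : Function.Injective F := by
      intro x y h
      simp only [F, Prod.mk.injEq, Subtype.mk.injEq] at h
      refine Subtype.ext (IsTbl.ext (hfT x) ?_)
      rw [h.1, h.2]
      exact hfT y
    refine (Nat.card_le_card_of_injective F hF).trans (le_of_eq ?_)
    rw [Nat.card_prod, Nat.card_eq_fintype_card, Nat.card_eq_fintype_card]
    decide +kernel
  obtain ⟨m, hm⟩ := h11
  have hm10 : m ≤ 10 := by omega
  have hm0 : 0 < m := by
    rcases Nat.eq_zero_or_pos m with h | h
    · rw [h, mul_zero] at hm; exact absurd hm Nat.card_pos.ne'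
    · exact h
  have key : ∀ p : ℕ, p.Prime → p ∣ m → p = 5 ∨ p = 11 := fun p hp h =>
    hprimes p hp (hm ▸ h.mul_left 11)
  interval_cases m
  · exact Or.inl hm
  · exact absurd (key 2 (by norm_num) (by norm_num)) (by norm_num)
  · exact absurd (key 3 (by norm_num) (by norm_num)) (by norm_num)
  · exact absurd (key 2 (by norm_num) (by norm_num)) (by norm_num)
  · exact Or.inr hm
  · exact absurd (key 2 (by norm_num) (by norm_num)) (by norm_num)
  · exact absurd (key 7 (by norm_num) (by norm_num)) (by norm_num)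
  · exact absurd (key 2 (by norm_num) (by norm_num)) (by norm_num)
  · exact absurd (key 3 (by norm_num) (by norm_num)) (by norm_num)
  · exact absurd (key 2 (by norm_num) (by norm_num)) (by norm_num)

/-- Sylow's theorem for an element of prime order whose square does not divide the group order. -/
theorem card_eq_mul_normalizer {G : Type*} [Group G] [Finite G] {p : ℕ} (hp : p.Prime)
    {K : Subgroup G} {x : G} (hx : x ∈ K) (ho : orderOf x = p) (hsq : ¬ p * p ∣ Nat.card K) :
    ∃ n, n % p = 1 ∧
      Nat.card K = n * Nat.card ↥(K ⊓ Subgroup.normalizer (Subgroup.zpowers x : Set G)) := by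
  have := Fact.mk hp
  have hle : Subgroup.zpowers x ≤ K := Subgroup.zpowers_le.2 hx
  have hc : Nat.card ((Subgroup.zpowers x).subgroupOf K) = p := by
    rw [Nat.card_congr (Subgroup.subgroupOfEquivOfLe hle).toEquiv, Nat.card_zpowers, ho]
  have hidx : ¬ p ∣ ((Subgroup.zpowers x).subgroupOf K).index := by
    intro h
    apply hsq
    rw [← Subgroup.card_mul_index ((Subgroup.zpowers x).subgroupOf K), hc]
    exact mul_dvd_mul_left p h
  let P : Sylow p K := (IsPGroup.of_card (n := 1) (by rw [hc, pow_one])).toSylow hidx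
  refine ⟨Nat.card (Sylow p K), ?_, ?_⟩
  · rw [card_sylow_modEq_one p K, Nat.one_mod_eq_one.2 hp.ne_one]
  · have e : Subgroup.normalizer ((P : Subgroup K) : Set K) =
        (K ⊓ Subgroup.normalizer (Subgroup.zpowers x : Set G)).subgroupOf K := by
      show Subgroup.normalizer (((Subgroup.zpowers x).subgroupOf K : Subgroup K) : Set K) = _
      rw [← Subgroup.subgroupOf_normalizer_eq hle, Subgroup.inf_subgroupOf_left]
    have hN := Subgroup.card_mul_index (Subgroup.normalizer ((P : Subgroup K) : Set K))
    rw [show (Subgroup.normalizer ((P : Subgroup K) : Set K)).index = Nat.card (Sylow p K) from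
      P.card_eq_index_normalizer.symm, e,
      Nat.card_congr (Subgroup.subgroupOfEquivOfLe inf_le_left).toEquiv] at hN
    rw [← hN, mul_comm]

theorem tA_order : orderOf (tA 1) = 23 := by
  refine orderOf_eq_prime ?_ fun h => ?_
  · rw [tA_pow, show ((23 : ℕ) : ZMod 23) = 0 from ZMod.natCast_self 23, tA_zero]
  · have := DFunLike.congr_fun h (some (0 : ZMod 23))
    rw [tA_some, Equiv.Perm.one_apply, zero_add] at this
    exact one_ne_zero (Option.some.inj this)

theorem mulTbl_bad : ∀ k : ZMod 23, k ≠ 0 → (¬ ∃ r : ZMod 23, r * r = k) →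
    keeps (mulTbl k.val) = false ∧
      ∀ p : GolayPt, idx (Option.map (fun x : ZMod 23 => k * x) p) = tblAt (mulTbl k.val) (idx p) := by
  decide +kernel

theorem normalizer23 {g : Equiv.Perm GolayPt} (hg : g ∈ M24) (h0 : g none = none)
    (hn : g ∈ Subgroup.normalizer (Subgroup.zpowers (tA 1) : Set (Equiv.Perm GolayPt))) :
    g ∈ aff := by
  have h := (Subgroup.mem_normalizer_iff.1 hn (tA 1)).1 (Subgroup.mem_zpowers _)
  rw [mem_zpowers_iff_mem_range_orderOf, Finset.mem_image] at h
  obtain ⟨k, hk, he⟩ := h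
  rw [tA_pow] at he
  have hc : g * tA 1 = tA k * g := by rw [he, inv_mul_cancel_right]
  cases hb : g (some 0) with
  | none => exact absurd (g.injective (hb.trans h0.symm)) (Option.some_ne_none _)
  | some b =>
      have hval : ∀ n : ℕ, g (some (n : ZMod 23)) = some (n * k + b) := by
        intro n
        induction n with
        | zero => rw [Nat.cast_zero, zero_mul, zero_add, hb]
        | succ n ih =>
            have := DFunLike.congr_fun hc (some (n : ZMod 23))
            rw [Equiv.Perm.mul_apply, Equiv.Perm.mul_apply, tA_some, ih, tA_some] at this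
            rw [Nat.cast_succ, this, add_mul, one_mul, add_right_comm]
      have hk0 : (k : ZMod 23) ≠ 0 := by
        intro h
        have h1 := hval 1
        rw [h, mul_zero, zero_add, ← hb, Nat.cast_one] at h1
        exact one_ne_zero (Option.some.inj (g.injective h1))
      let u : (ZMod 23)ˣ := Units.mk0 (k : ZMod 23) hk0
      have hg' : g = tA b * hA u := by
        refine Equiv.ext fun p => ?_
        cases p with
        | none => exact h0
        | some x =>
            rw [← ZMod.natCast_zmod_val x, hval, Equiv.Perm.mul_apply, hA_some, tA_some, mul_comm]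
            rfl
      have hsq : IsSquare u := by
        by_contra hns
        have htA : tA b ∈ aff := tA_mem (Subgroup.subset_closure (Or.inl rfl)) b
        have hmem : hA u ∈ M24 := by
          have := mul_mem (inv_mem (aff_le_M24 htA)) hg
          rwa [hg', inv_mul_cancel_left] at this
        obtain ⟨hbad, htbl⟩ := mulTbl_bad (k : ZMod 23) hk0 (by
          rintro ⟨r, hr⟩
          have hr0 : r ≠ 0 := fun h => hk0 (by rw [← hr, h, mul_zero])
          exact hns ⟨Units.mk0 r hr0, Units.ext hr.symm⟩)
        have := keeps_of_mem (g := hA u) (fun p => htbl p) hmem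
        rw [hbad] at this
        exact Bool.false_ne_true this
      rw [hg']
      exact mul_mem (tA_mem (Subgroup.subset_closure (Or.inl rfl)) b)
        (Subgroup.subset_closure (Or.inr ⟨u, hsq, rfl⟩))

theorem sylow_candidates : ∀ q : Fin 1754, (23 * q.1 + 1) ∣ 40320 →
    q.1 = 0 ∨ q.1 = 1 ∨ q.1 = 3 ∨ q.1 = 25 ∨ q.1 = 73 ∨ q.1 = 1753 := by
  decide +kernel

/-- The only subgroups of the point stabiliser above `23:11`. -/
theorem point_cases {K : Subgroup (Equiv.Perm GolayPt)} (hF : aff ≤ K) (hK : K ≤ M24)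
    (h0 : ∀ g ∈ K, g none = none) : K = aff ∨ Nat.card K = 10200960 := by
  have hdvd : Nat.card K ∣ 10200960 := by
    have hle : K ≤ M24 ⊓ MulAction.stabilizer (Equiv.Perm GolayPt) (none : GolayPt) :=
      fun g hg => ⟨hK hg, h0 g hg⟩
    have := Subgroup.card_dvd_of_le hle
    rw [← card_subgroupOf_M24 (inf_le_left (b := MulAction.stabilizer _ _))] at this
    have e : (M24 ⊓ MulAction.stabilizer (Equiv.Perm GolayPt) (none : GolayPt)).subgroupOf M24 =
        MulAction.stabilizer M24 (none : GolayPt) := by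
      ext g
      simp only [Subgroup.mem_subgroupOf, Subgroup.mem_inf, SetLike.coe_mem, true_and]
      exact Iff.rfl
    rwa [e, card_stabilizer_point] at this
  have ht : tA 1 ∈ K := hF (Subgroup.subset_closure (Or.inl rfl))
  obtain ⟨n, hn1, hn⟩ := card_eq_mul_normalizer (p := 23) (by norm_num) ht tA_order
    fun h => absurd (h.trans hdvd) (by norm_num)
  have hN : K ⊓ Subgroup.normalizer (Subgroup.zpowers (tA 1) : Set (Equiv.Perm GolayPt)) = aff := by
    refine le_antisymm (fun g hg => normalizer23 (hK hg.1) (h0 g hg.1) hg.2) (le_inf hF ?_)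
    intro g hg
    obtain ⟨u, -, c, rfl⟩ := mem_aff_iff.1 hg
    refine mul_mem ?_ (Subgroup.le_normalizer (tA_mem (Subgroup.mem_zpowers _) c))
    rw [Subgroup.mem_normalizer_iff]
    intro x
    have hconj : ∀ d, hA u * tA d * (hA u)⁻¹ = tA ((u : ZMod 23) * d) := by
      intro d
      rw [mul_inv_eq_iff_eq_mul, tA_mul_hA, ← mul_assoc (↑u⁻¹ : ZMod 23), Units.inv_mul, one_mul]
    have hz : ∀ y, y ∈ Subgroup.zpowers (tA 1) → ∃ d, y = tA d := by
      intro y hy
      rw [mem_zpowers_iff_mem_range_orderOf, Finset.mem_image] at hy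
      obtain ⟨d, -, rfl⟩ := hy
      exact ⟨_, tA_pow d⟩
    constructor
    · intro hx
      obtain ⟨d, rfl⟩ := hz x hx
      rw [hconj]
      exact tA_mem (Subgroup.mem_zpowers _) _
    · intro hx
      obtain ⟨d, hd⟩ := hz _ hx
      have : x = tA ((↑u⁻¹ : ZMod 23) * d) := by
        have h' := hconj ((↑u⁻¹ : ZMod 23) * d)
        rw [← mul_assoc, Units.mul_inv, one_mul, ← hd] at h'
        exact (mul_left_cancel (mul_right_cancel h')).symm
      rw [this]
      exact tA_mem (Subgroup.mem_zpowers _) _
  rw [hN, card_aff] at hn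
  have hn40 : n ∣ 40320 := by
    have : n * 253 ∣ 40320 * 253 := by
      rw [show (40320 : ℕ) * 253 = 10200960 by norm_num, ← hn]
      exact hdvd
    exact Nat.dvd_of_mul_dvd_mul_right (by norm_num) this
  have hnle := Nat.le_of_dvd (by norm_num) hn40
  have hq : 23 * (n / 23) + 1 = n := by omega
  rcases sylow_candidates ⟨n / 23, by omega⟩ (show 23 * (n / 23) + 1 ∣ 40320 by rwa [hq]) with
    h | h | h | h | h | h
  · left
    simp only at h
    refine (Subgroup.eq_of_le_of_card_ge hF ?_).symm
    rw [hn, card_aff, show n = 1 by omega, one_mul]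
  case inr.inr.inr.inr.inr =>
    right
    simp only at h
    rw [hn, show n = 1753 * 23 + 1 by omega]
  all_goals
    exfalso
    simp only at h
    set K0 := K ⊓ MulAction.stabilizer (Equiv.Perm GolayPt) (some 0 : GolayPt) with hK0
    have hcard : Nat.card K = 23 * Nat.card K0 := by
      have horb : MulAction.orbit K (some 0 : GolayPt) = Set.range some := by
        ext p
        constructor
        · rintro ⟨g, rfl⟩
          cases hp : (g : Equiv.Perm GolayPt) (some 0) with
          | none =>
              exact absurd ((g : Equiv.Perm GolayPt).injective (hp.trans (h0 g g.2).symm))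
                (Option.some_ne_none _)
          | some y => exact ⟨y, hp.symm⟩
        · rintro ⟨y, rfl⟩
          exact ⟨⟨tA y, tA_mem ht y⟩, by
            show tA y (some 0) = some y
            rw [tA_some, zero_add]⟩
      have h1 := Subgroup.card_mul_index (MulAction.stabilizer K (some 0 : GolayPt))
      rw [MulAction.index_stabilizer, horb, Set.ncard_range_of_injective (Option.some_injective _),
        Nat.card_zmod] at h1
      have e : MulAction.stabilizer K (some 0 : GolayPt) = K0.subgroupOf K := by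
        ext g
        simp only [K0, Subgroup.mem_subgroupOf, Subgroup.mem_inf, SetLike.coe_mem, true_and]
        exact Iff.rfl
      rw [e, Nat.card_congr (Subgroup.subgroupOfEquivOfLe inf_le_left).toEquiv] at h1
      rw [← h1, mul_comm]
    have hhK : hh ∈ K0 := ⟨hF hh_mem_aff, by
      show hh (some 0) = some 0
      rw [hh_some, mul_zero]⟩
    have hsq : ¬ 11 * 11 ∣ Nat.card K0 := fun hd =>
      absurd ((hd.trans (hcard ▸ dvd_mul_left _ 23)).trans hdvd) (by norm_num)
    obtain ⟨m, hm1, hm⟩ := card_eq_mul_normalizer (p := 11) (by norm_num) hhK hh_order hsq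
    rcases card_normalizer11 (K := K0) (fun g hg => hK hg.1) (fun g hg => h0 g hg.1)
      (fun g hg => hg.2) hhK with hc | hc <;> rw [hc] at hm <;>
      · rw [hcard, hm] at hn
        omega

/-- The point stabiliser of the extra point. -/
def stabInf : Subgroup (Equiv.Perm GolayPt) :=
  M24 ⊓ MulAction.stabilizer (Equiv.Perm GolayPt) (none : GolayPt)

theorem aff_le_stabInf : aff ≤ stabInf := fun _ hg => ⟨aff_le_M24 hg, aff_fix hg⟩

theorem card_stabInf : Nat.card stabInf = 10200960 := by
  rw [← card_subgroupOf_M24 (K := stabInf) inf_le_left, ← card_stabilizer_point none]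
  congr 1
  congr 1
  ext1 g
  refine propext ?_
  simp only [stabInf, Subgroup.mem_subgroupOf, Subgroup.mem_inf, SetLike.coe_mem, true_and]
  exact Iff.rfl

/-- `23:11` is a maximal subgroup of the point stabiliser. -/
theorem aff_maximal {K : Subgroup (Equiv.Perm GolayPt)} (hF : aff ≤ K) (hK : K ≤ stabInf) :
    K = aff ∨ K = stabInf := by
  rcases point_cases hF (hK.trans inf_le_left) (fun g hg => (hK hg).2) with h | h
  · exact Or.inl h
  · exact Or.inr (Subgroup.eq_of_le_of_card_ge hK (by rw [h, card_stabInf]))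

/-- The group of order 6072 is a maximal subgroup of `M24`. -/
theorem proj_maximal {H : Subgroup (Equiv.Perm GolayPt)} (hL : proj ≤ H) (hH : H ≤ M24) :
    H = proj ∨ H = M24 := by
  have haff : aff ≤ proj := Subgroup.closure_mono (by
    rintro y (rfl | hy)
    exacts [Or.inl (Or.inl rfl), Or.inr hy])
  set K := H ⊓ MulAction.stabilizer (Equiv.Perm GolayPt) (none : GolayPt)
  have horb : MulAction.orbit H (none : GolayPt) = Set.univ := by
    rw [Set.eq_univ_iff_forall]
    intro p
    cases p with
    | none => exact MulAction.mem_orbit_self _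
    | some x =>
        refine ⟨⟨tA x * projInv, mul_mem
          (hL (tA_mem (Subgroup.subset_closure (Or.inl (Or.inl rfl))) x))
          (hL (Subgroup.subset_closure (Or.inl (Or.inr rfl))))⟩, ?_⟩
        show tA x (projInv none) = some x
        exact congrArg some (zero_add x)
  have hcard : Nat.card H = 24 * Nat.card K := by
    have h1 := Subgroup.card_mul_index (MulAction.stabilizer H (none : GolayPt))
    rw [MulAction.index_stabilizer, horb, Set.ncard_univ, card_golayPt] at h1
    have e : MulAction.stabilizer H (none : GolayPt) = K.subgroupOf H := by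
      ext g
      simp only [K, Subgroup.mem_subgroupOf, Subgroup.mem_inf, SetLike.coe_mem, true_and]
      exact Iff.rfl
    rw [e, Nat.card_congr (Subgroup.subgroupOfEquivOfLe inf_le_left).toEquiv] at h1
    rw [← h1, mul_comm]
  rcases aff_maximal (K := K) (le_inf (haff.trans hL) fun g hg => aff_fix hg)
    (inf_le_inf_right _ hH) with h | h
  · exact Or.inl (Subgroup.eq_of_le_of_card_ge hL (by rw [hcard, h, card_proj, card_aff])).symm
  · exact Or.inr (Subgroup.eq_of_le_of_card_ge hH (by rw [hcard, h, natCard_M24, card_stabInf]))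

end CfsgLib.GolayProjective
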